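import Cfsg.Agent.Lib.Helper17.ChevLevi2

set_option autoImplicit false

/-! Borel--Tits for the tabulated Chevalley groups, by the optimal-point argument (Kempf--Rousseau) in
matrix form: definitions and the general matrix lemmas. -/

namespace Cfsg.Agent.Lib.Helper19.BT

open Cfsg.Lie Matrix Cfsg.Agent.Lib.Helper17 Cfsg.Agent.Lib.Helper18 Cfsg.Agent.Lib.Helper36

/-! ### real gradings of a matrix algebra -/

section Mat
variable {ι : Type*} [Fintype ι] [DecidableEq ι] {F : Type*} [Field F]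

/-- `M` sends the `d`-filtration to the `d'`-filtration, raising degrees by at least `c`. -/
def Rs (c : ℝ) (d d' : ι → ℝ) (M : Matrix ι ι F) : Prop := ∀ a b, M a b ≠ 0 → d b + c ≤ d' a

/-- `M` strictly raises the `d`-degree. -/
def Sr (d : ι → ℝ) (M : Matrix ι ι F) : Prop := ∀ a b, M a b ≠ 0 → d b < d a

/-- `M` preserves the `d`-degree. -/
def Bd (d : ι → ℝ) (M : Matrix ι ι F) : Prop := ∀ a b, M a b ≠ 0 → d a = d b

lemma Rs.one (d : ι → ℝ) : Rs 0 d d (1 : Matrix ι ι F) := by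
  intro a b h
  by_cases e : a = b
  · rw [e, add_zero]
  · exact absurd (Matrix.one_apply_ne e) h

lemma Rs.zero (c : ℝ) (d d' : ι → ℝ) : Rs c d d' (0 : Matrix ι ι F) := fun a b h => absurd rfl h

lemma Rs.add {c : ℝ} {d d' : ι → ℝ} {A B : Matrix ι ι F} (hA : Rs c d d' A) (hB : Rs c d d' B) :
    Rs c d d' (A + B) := by
  intro a b h
  rw [Matrix.add_apply] at h
  by_cases h1 : A a b = 0
  · rw [h1, zero_add] at h
    exact hB a b h
  · exact hA a b h1

lemma Rs.mul {c c' : ℝ} {d d' d'' : ι → ℝ} {A B : Matrix ι ι F} (hA : Rs c d' d'' A)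
    (hB : Rs c' d d' B) : Rs (c + c') d d'' (A * B) := by
  intro a b h
  rw [Matrix.mul_apply] at h
  obtain ⟨k, _, hk⟩ := Finset.exists_ne_zero_of_sum_ne_zero h
  have h1 := hA a k (left_ne_zero_of_mul hk)
  have h2 := hB k b (right_ne_zero_of_mul hk)
  linarith

lemma Rs.mono {c c' : ℝ} {d d' : ι → ℝ} {A : Matrix ι ι F} (hA : Rs c d d' A) (h : c' ≤ c) :
    Rs c' d d' A := by
  intro a b hne
  have := hA a b hne
  linarith

lemma Rs.mul_sub_one {d : ι → ℝ} {A B : Matrix ι ι F} (hA : Rs 1 d d (A - 1)) (hB : Rs 1 d d (B - 1)) :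
    Rs 1 d d (A * B - 1) := by
  have : A * B - 1 = (A - 1) * (B - 1) + (A - 1) + (B - 1) := by noncomm_ring
  rw [this]
  exact (((hA.mul hB).mono (by norm_num)).add hA).add hB

lemma Bd.one (d : ι → ℝ) : Bd d (1 : Matrix ι ι F) := by
  intro a b h
  by_cases e : a = b
  · rw [e]
  · exact absurd (Matrix.one_apply_ne e) h

lemma Bd.mul {d : ι → ℝ} {A B : Matrix ι ι F} (hA : Bd d A) (hB : Bd d B) : Bd d (A * B) := by
  intro a b h
  rw [Matrix.mul_apply] at h
  obtain ⟨c, _, hc⟩ := Finset.exists_ne_zero_of_sum_ne_zero h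
  exact (hA a c (left_ne_zero_of_mul hc)).trans (hB c b (right_ne_zero_of_mul hc))

lemma Sr.zero (d : ι → ℝ) : Sr d (0 : Matrix ι ι F) := fun a b h => absurd rfl h

lemma Sr.add {d : ι → ℝ} {A B : Matrix ι ι F} (hA : Sr d A) (hB : Sr d B) : Sr d (A + B) := by
  intro a b h
  rw [Matrix.add_apply] at h
  by_cases h1 : A a b = 0
  · rw [h1, zero_add] at h
    exact hB a b h
  · exact hA a b h1

lemma Sr.mul {d : ι → ℝ} {A B : Matrix ι ι F} (hA : Sr d A) (hB : Sr d B) : Sr d (A * B) := by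
  intro a b h
  rw [Matrix.mul_apply] at h
  obtain ⟨c, _, hc⟩ := Finset.exists_ne_zero_of_sum_ne_zero h
  exact (hB c b (right_ne_zero_of_mul hc)).trans (hA a c (left_ne_zero_of_mul hc))

lemma Sr.mul_sub_one {d : ι → ℝ} {A B : Matrix ι ι F} (hA : Sr d (A - 1)) (hB : Sr d (B - 1)) :
    Sr d (A * B - 1) := by
  have : A * B - 1 = (A - 1) * (B - 1) + (A - 1) + (B - 1) := by noncomm_ring
  rw [this]
  exact ((hA.mul hB).add hA).add hB

lemma Rs.sr {d : ι → ℝ} {A : Matrix ι ι F} (hA : Rs 1 d d A) : Sr d A := by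
  intro a b h
  have := hA a b h
  linarith

/-- `g` carries the `d`-filtration onto the `d'`-filtration. -/
def Tw (g : GL ι F) (d d' : ι → ℝ) : Prop :=
  Rs 0 d d' (g : Matrix ι ι F) ∧ Rs 0 d' d ((g⁻¹ : GL ι F) : Matrix ι ι F)

variable (F)

/-- invertible matrices `g` with `g - 1` raising the `d`-degree by at least `1` -/
def uT (d : ι → ℝ) : Subgroup (GL ι F) where
  carrier := {g | Rs 1 d d ((g : Matrix ι ι F) - 1) ∧ Rs 1 d d (((g⁻¹ : GL ι F) : Matrix ι ι F) - 1)}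
  mul_mem' := by
    rintro a b ⟨ha, ha'⟩ ⟨hb, hb'⟩
    refine ⟨by rw [Units.val_mul]; exact ha.mul_sub_one hb, ?_⟩
    rw [_root_.mul_inv_rev, Units.val_mul]
    exact hb'.mul_sub_one ha'
  one_mem' := by
    refine ⟨by rw [Units.val_one, sub_self]; exact Rs.zero _ _ _, ?_⟩
    rw [inv_one, Units.val_one, sub_self]; exact Rs.zero _ _ _
  inv_mem' := by
    rintro a ⟨ha, ha'⟩
    exact ⟨ha', by rw [inv_inv]; exact ha⟩

/-- invertible matrices preserving the `d`-filtration -/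
def pT (d : ι → ℝ) : Subgroup (GL ι F) where
  carrier := {g | Tw g d d}
  mul_mem' := by
    rintro a b ⟨ha, ha'⟩ ⟨hb, hb'⟩
    refine ⟨by rw [Units.val_mul]; exact (ha.mul hb).mono (by norm_num), ?_⟩
    rw [_root_.mul_inv_rev, Units.val_mul]
    exact (hb'.mul ha').mono (by norm_num)
  one_mem' := by
    refine ⟨by rw [Units.val_one]; exact Rs.one _, ?_⟩
    rw [inv_one, Units.val_one]; exact Rs.one _
  inv_mem' := by
    rintro a ⟨ha, ha'⟩
    exact ⟨ha', by rw [inv_inv]; exact ha⟩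

/-- invertible matrices `g` with `g - 1` strictly raising the `d`-degree -/
def sT (d : ι → ℝ) : Subgroup (GL ι F) where
  carrier := {g | Sr d ((g : Matrix ι ι F) - 1) ∧ Sr d (((g⁻¹ : GL ι F) : Matrix ι ι F) - 1)}
  mul_mem' := by
    rintro a b ⟨ha, ha'⟩ ⟨hb, hb'⟩
    refine ⟨by rw [Units.val_mul]; exact ha.mul_sub_one hb, ?_⟩
    rw [_root_.mul_inv_rev, Units.val_mul]
    exact hb'.mul_sub_one ha'
  one_mem' := by
    refine ⟨by rw [Units.val_one, sub_self]; exact Sr.zero _, ?_⟩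
    rw [inv_one, Units.val_one, sub_self]; exact Sr.zero _
  inv_mem' := by
    rintro a ⟨ha, ha'⟩
    exact ⟨ha', by rw [inv_inv]; exact ha⟩

/-- invertible matrices preserving the `d`-grading -/
def bT (d : ι → ℝ) : Subgroup (GL ι F) where
  carrier := {g | Bd d (g : Matrix ι ι F) ∧ Bd d ((g⁻¹ : GL ι F) : Matrix ι ι F)}
  mul_mem' := by
    rintro a b ⟨ha, ha'⟩ ⟨hb, hb'⟩
    refine ⟨by rw [Units.val_mul]; exact ha.mul hb, ?_⟩
    rw [_root_.mul_inv_rev, Units.val_mul]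
    exact hb'.mul ha'
  one_mem' := by
    refine ⟨by rw [Units.val_one]; exact Bd.one _, ?_⟩
    rw [inv_one, Units.val_one]; exact Bd.one _
  inv_mem' := by
    rintro a ⟨ha, ha'⟩
    exact ⟨ha', by rw [inv_inv]; exact ha⟩

variable {F}

lemma uT_le_sT (d : ι → ℝ) : uT F d ≤ sT F d := fun _ hg => ⟨hg.1.sr, hg.2.sr⟩

theorem sT_inf_bT (d : ι → ℝ) : sT F d ⊓ bT F d = ⊥ := by
  rw [eq_bot_iff]
  rintro g ⟨⟨h1, _⟩, ⟨h2, _⟩⟩
  rw [Subgroup.mem_bot]
  apply Units.ext
  ext a b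
  by_contra hne
  have h3 : ((g : Matrix ι ι F) - 1) a b ≠ 0 := by
    rw [Matrix.sub_apply]
    exact sub_ne_zero.mpr hne
  have h4 := h1 a b h3
  have hab : a ≠ b := by rintro rfl; exact lt_irrefl _ h4
  have h5 : (g : Matrix ι ι F) a b ≠ 0 := by
    rw [Matrix.sub_apply, Matrix.one_apply_ne hab, sub_zero] at h3
    exact h3
  have := h2 a b h5
  linarith

lemma Tw.inv {g : GL ι F} {d d' : ι → ℝ} (h : Tw g d d') : Tw g⁻¹ d' d :=
  ⟨h.2, by rw [inv_inv]; exact h.1⟩

lemma Tw.mul {g g' : GL ι F} {d d' d'' : ι → ℝ} (h' : Tw g' d' d'') (h : Tw g d d') :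
    Tw (g' * g) d d'' := by
  refine ⟨by rw [Units.val_mul]; exact (h'.1.mul h.1).mono (by norm_num), ?_⟩
  rw [_root_.mul_inv_rev, Units.val_mul]
  exact (h.2.mul h'.2).mono (by norm_num)

/-- conjugation by a filtration-carrying matrix -/
theorem Tw.conj_mem {g x : GL ι F} {d d' : ι → ℝ} (h : Tw g d d') (hx : x ∈ uT F d) :
    g * x * g⁻¹ ∈ uT F d' := by
  have key : ∀ y : GL ι F, Rs 1 d d ((y : Matrix ι ι F) - 1) →
      Rs 1 d' d' (((g * y * g⁻¹ : GL ι F) : Matrix ι ι F) - 1) := by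
    intro y hy
    have e : ((g * y * g⁻¹ : GL ι F) : Matrix ι ι F) - 1 =
        (g : Matrix ι ι F) * ((y : Matrix ι ι F) - 1) * ((g⁻¹ : GL ι F) : Matrix ι ι F) := by
      have h1 : (g : Matrix ι ι F) * ((g⁻¹ : GL ι F) : Matrix ι ι F) = 1 := by
        rw [← Units.val_mul, mul_inv_cancel, Units.val_one]
      rw [Units.val_mul, Units.val_mul, mul_sub, sub_mul, mul_one, h1]
    rw [e]
    exact ((h.1.mul hy).mul h.2).mono (by norm_num)
  refine ⟨key x hx.1, ?_⟩
  have e : (g * x * g⁻¹)⁻¹ = g * x⁻¹ * g⁻¹ := by group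
  rw [e]
  exact key _ hx.2

lemma uT_le_pT (d : ι → ℝ) : uT F d ≤ pT F d := by
  have key : ∀ M : Matrix ι ι F, Rs 1 d d (M - 1) → Rs 0 d d M := by
    intro M hM
    have : M = (M - 1) + 1 := by abel
    rw [this]
    exact (hM.mono (by norm_num)).add (Rs.one d)
  exact fun g hg => ⟨key _ hg.1, key _ hg.2⟩

lemma bT_le_pT (d : ι → ℝ) : bT F d ≤ pT F d := by
  have key : ∀ M : Matrix ι ι F, Bd d M → Rs 0 d d M := by
    intro M hM a b h
    rw [hM a b h, add_zero]
  exact fun g hg => ⟨key _ hg.1, key _ hg.2⟩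

/-- the midpoint inclusion -/
theorem uT_inf_le (d d' : ι → ℝ) : uT F d ⊓ uT F d' ≤ uT F (fun i => (d i + d' i) / 2) := by
  have key : ∀ M : Matrix ι ι F, Rs 1 d d M → Rs 1 d' d' M →
      Rs 1 (fun i => (d i + d' i) / 2) (fun i => (d i + d' i) / 2) M := by
    intro M h h' a b hne
    have h1 := h a b hne
    have h2 := h' a b hne
    show (d b + d' b) / 2 + 1 ≤ (d a + d' a) / 2
    linarith
  rintro g ⟨h, h'⟩
  exact ⟨key _ h.1 h'.1, key _ h.2 h'.2⟩

lemma uT_zero : uT F (fun _ : ι => (0 : ℝ)) = ⊥ := by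
  rw [eq_bot_iff]
  rintro g ⟨h, _⟩
  rw [Subgroup.mem_bot]
  apply Units.ext
  ext a b
  by_contra hne
  have h3 : ((g : Matrix ι ι F) - 1) a b ≠ 0 := by
    rw [Matrix.sub_apply]
    exact sub_ne_zero.mpr hne
  have := h a b h3
  norm_num at this

end Mat

/-! ### real functionals on the roots -/

/-- the functional with parameters `a` (a positive multiple of its values at the fundamental roots) -/
noncomputable def lam (D : ChevalleyDatum) (a : Fin D.rank → ℝ) (r : ℕ) : ℝ :=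
  ∑ k : Fin D.rank, a k * (rcf D r k : ℝ)

/-- the grading of the adjoint module attached to `a` -/
noncomputable def deg (D : ChevalleyDatum) (a : Fin D.rank → ℝ) : D.Idx → ℝ
  | Sum.inl _ => 0
  | Sum.inr s => lam D a s.val

/-- the Weyl-invariant quadratic form -/
noncomputable def nrm (D : ChevalleyDatum) (a : Fin D.rank → ℝ) : ℝ :=
  ∑ r : Fin D.nroots, (lam D a r) ^ 2

/-- the action of the `i`-th fundamental reflection on the parameters -/
noncomputable def refl (D : ChevalleyDatum) (i : Fin D.rank) (a : Fin D.rank → ℝ) : Fin D.rank → ℝ :=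
  fun l => a l - a i * (D.cartan i (D.simple l) : ℝ)

/-- `a` is feasible for the subgroup `Q`: some conjugate of `Q` lies in `uT (deg a)` -/
def Feas (D : ChevalleyDatum) {F : Type*} [Field F] (Q : Subgroup (GL D.Idx F))
    (a : Fin D.rank → ℝ) : Prop :=
  ∃ g ∈ D.group F, ∀ x ∈ Q, g⁻¹ * x * g ∈ uT F (deg D a)

/-- the common value `rcf (simple k) k` (the determinant of the Cartan matrix) -/
def dt (D : ChevalleyDatum) : ℤ := rcf D (D.simple 0) 0

end Cfsg.Agent.Lib.Helper19.BT
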