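import Cfsg.Agent.Lib.Helper19.BT.Tab

set_option autoImplicit false

namespace Cfsg.Agent.Lib.Helper19.BT

open Cfsg.Lie Matrix Cfsg.Agent.Lib.Helper17 Cfsg.Agent.Lib.Helper18 Cfsg.Agent.Lib.Helper36

variable {D : ChevalleyDatum} {F : Type*} [Field F]

/-! ## [A1] linear algebra of lam.  All are 3-10 lines. -/

theorem lam_mid (a a' : Fin D.rank → ℝ) (r : ℕ) :
    lam D (fun k => (a k + a' k) / 2) r = (lam D a r + lam D a' r) / 2 := by
  unfold lam
  rw [← Finset.sum_add_distrib, Finset.sum_div]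
  apply Finset.sum_congr rfl
  intro k _
  ring

theorem deg_mid (a a' : Fin D.rank → ℝ) :
    deg D (fun k => (a k + a' k) / 2) = fun i => (deg D a i + deg D a' i) / 2 := by
  funext i
  rcases i with i | s
  · simp [deg]
  · exact lam_mid a a' s

theorem lam_simple (hD : D ∈ [chevG2, chevB2, chevD4, chevF4, chevE6, chevE7, chevE8])
    (a : Fin D.rank → ℝ) (k : Fin D.rank) : lam D a (D.simple k) = (dt D : ℝ) * a k := by
  unfold lam
  rw [Finset.sum_eq_single k]
  · rw [rcf_simple hD k.2 k.2, if_pos rfl]; ring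
  · intro l _ hl
    rw [rcf_simple hD k.2 l.2, if_neg (fun e => hl (Fin.ext e.symm))]; simp
  · intro h; exact absurd (Finset.mem_univ k) h

theorem lam_neg (hD : D ∈ [chevG2, chevB2, chevD4, chevF4, chevE6, chevE7, chevE8])
    (a : Fin D.rank → ℝ) {s : ℕ} (hs : s < D.nroots) : lam D a (D.neg s) = - lam D a s := by
  obtain ⟨T, W, h⟩ := exists_checks D hD
  unfold lam
  rw [← Finset.sum_neg_distrib]
  apply Finset.sum_congr rfl
  intro k _
  rw [Helper17.rcf_neg h _ s hs]
  push_cast
  ring

theorem lam_refl (hD : D ∈ [chevG2, chevB2, chevD4, chevF4, chevE6, chevE7, chevE8])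
    (i : Fin D.rank) (a : Fin D.rank → ℝ) {s : ℕ} (hs : s < D.nroots) :
    lam D (refl D i a) s = lam D a (D.reflectRoot i s) := by
  have h1 : (∑ l : Fin D.rank, (D.cartan i (D.simple l) : ℝ) * (rcf D s l : ℝ))
      = (dt D : ℝ) * (D.cartan i s : ℝ) := by
    have := sum_cartan_rcf hD i.2 s
    rw [← Fin.sum_univ_eq_sum_range (fun l => D.cartan i (D.simple l) * rcf D s l)] at this
    have h2 := congrArg (fun z : ℤ => (z : ℝ)) this
    push_cast at h2
    exact h2
  have hL : lam D (refl D i a) s = lam D a s - a i * ((dt D : ℝ) * (D.cartan i s : ℝ)) := by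
    rw [← h1, Finset.mul_sum]
    unfold lam refl
    rw [← Finset.sum_sub_distrib]
    apply Finset.sum_congr rfl
    intro l _
    ring
  have hR : lam D a (D.reflectRoot i s)
      = lam D a s - (D.cartan i s : ℝ) * lam D a (D.simple i) := by
    unfold lam
    rw [Finset.mul_sum, ← Finset.sum_sub_distrib]
    apply Finset.sum_congr rfl
    intro k _
    rw [rcf_reflectRoot hD i.2 hs k]
    push_cast
    ring
  rw [hL, hR, lam_simple hD]
  ring

end Cfsg.Agent.Lib.Helper19.BT
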