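import Cfsg.Agent.Lib.Helper19.BT.Tab
import Cfsg.Agent.Lib.Helper17.ChevCent

set_option autoImplicit false

namespace Cfsg.Agent.Lib.Helper19.BT

open Cfsg.Lie Matrix Cfsg.Agent.Lib.Helper17 Cfsg.Agent.Lib.Helper18 Cfsg.Agent.Lib.Helper36

variable {D : ChevalleyDatum} {F : Type*} [Field F]

/-! ## [A2] signs of lam. -/

theorem lam_nonneg (hD : D ∈ [chevG2, chevB2, chevD4, chevF4, chevE6, chevE7, chevE8])
    {a : Fin D.rank → ℝ} (ha : ∀ k, 0 ≤ a k) {r : ℕ} (hr : D.IsPosRoot r) : 0 ≤ lam D a r := by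
  unfold lam
  apply Finset.sum_nonneg
  intro k _
  exact mul_nonneg (ha k) (Int.cast_nonneg (rcf_nonneg (lvOK_of_mem hD) hr k.2))

theorem lam_pos (hD : D ∈ [chevG2, chevB2, chevD4, chevF4, chevE6, chevE7, chevE8])
    {a : Fin D.rank → ℝ} (ha : ∀ k, 0 ≤ a k) {J : Set ℕ} (hJ : ∀ k : Fin D.rank, a k = 0 → (k : ℕ) ∈ J)
    {r : ℕ} (hr : D.IsPosRoot r) (hrJ : ¬ D.InRootSub J r) : 0 < lam D a r := by
  have : ∃ i, i < D.rank ∧ i ∉ J ∧ cc D r i ≠ 0 := by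
    by_contra hc
    push Not at hc
    exact hrJ ⟨hr.1, hc⟩
  obtain ⟨i, hi, hiJ, hne⟩ := this
  unfold lam
  apply Finset.sum_pos'
  · intro k _
    exact mul_nonneg (ha k) (Int.cast_nonneg (rcf_nonneg (lvOK_of_mem hD) hr k.2))
  · refine ⟨⟨i, hi⟩, Finset.mem_univ _, ?_⟩
    apply mul_pos
    · exact lt_of_le_of_ne (ha _) (fun e => hiJ (hJ ⟨i, hi⟩ e.symm))
    · have h1 : 0 < rcf D r i := lt_of_le_of_ne (rcf_nonneg (lvOK_of_mem hD) hr hi)
        (fun e => hne ((rcf_eq_zero_iff (lvOK_of_mem hD) hr.1 hi).mp e.symm))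
      exact_mod_cast h1

theorem lam_eq_zero (hD : D ∈ [chevG2, chevB2, chevD4, chevF4, chevE6, chevE7, chevE8])
    {a : Fin D.rank → ℝ} {J : Set ℕ} (hJ : ∀ k : Fin D.rank, (k : ℕ) ∈ J → a k = 0)
    {r : ℕ} (hr : D.InRootSub J r) : lam D a r = 0 := by
  unfold lam
  apply Finset.sum_eq_zero
  intro k _
  by_cases hk : (k : ℕ) ∈ J
  · rw [hJ k hk, zero_mul]
  · rw [(rcf_eq_zero_iff (lvOK_of_mem hD) hr.1 k.2).mpr (hr.2 k k.2 hk)]; simp

theorem one_le_lam_one (hD : D ∈ [chevG2, chevB2, chevD4, chevF4, chevE6, chevE7, chevE8])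
    {r : ℕ} (hr : D.IsPosRoot r) : 1 ≤ lam D (fun _ => 1) r := by
  have hrJ := Helper17.not_inRootSub_empty (ordOK_of_mem hD) hr
  have : ∃ i, i < D.rank ∧ cc D r i ≠ 0 := by
    by_contra hc
    push Not at hc
    exact hrJ ⟨hr.1, fun i hi _ => hc i hi⟩
  obtain ⟨i, hi, hne⟩ := this
  have h1 : 0 < rcf D r i := lt_of_le_of_ne (rcf_nonneg (lvOK_of_mem hD) hr hi)
    (fun e => hne ((rcf_eq_zero_iff (lvOK_of_mem hD) hr.1 hi).mp e.symm))
  have h2 : (1 : ℝ) ≤ (rcf D r i : ℝ) := by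
    have h3 : (1 : ℤ) ≤ rcf D r i := h1
    exact_mod_cast h3
  have h4 : lam D (fun _ => 1) r = ∑ k : Fin D.rank, (rcf D r k : ℝ) := by
    unfold lam
    apply Finset.sum_congr rfl
    intro k _
    rw [one_mul]
  rw [h4]
  refine le_trans h2 ?_
  have h5 := Finset.single_le_sum (s := Finset.univ) (f := fun k : Fin D.rank => (rcf D r k : ℝ))
    (fun k _ => Int.cast_nonneg (rcf_nonneg (lvOK_of_mem hD) hr k.2))
    (Finset.mem_univ (⟨i, hi⟩ : Fin D.rank))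
  exact h5

end Cfsg.Agent.Lib.Helper19.BT
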