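import Cfsg.Agent.Lib.Helper19.BT.PA1

set_option autoImplicit false

namespace Cfsg.Agent.Lib.Helper19.BT

open Cfsg.Lie Matrix Cfsg.Agent.Lib.Helper17 Cfsg.Agent.Lib.Helper18 Cfsg.Agent.Lib.Helper36

variable {D : ChevalleyDatum} {F : Type*} [Field F]

/-! ## [B] the support of a root element (real gradings); copy of `Helper17.x_support`. -/

lemma lam_ent {T : Fast} {W : WTab} (h : Checks D T W) (c : Fin D.rank → ℝ) (a b : ℕ)
    (ha : a < D.nroots) (hb : b < D.nroots)
    (idx : ℕ) (q : ℕ × ℤ) (hq : (T.ent a b)[idx]? = some q) :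
    lam D c q.1 = (idx + 1 : ℕ) * lam D c a + lam D c b := by
  unfold lam
  rw [Finset.mul_sum, ← Finset.sum_add_distrib]
  refine Finset.sum_congr rfl fun k _ => ?_
  rw [rcf_ent h k a b ha hb idx q hq]
  push_cast
  ring

lemma lam_chainCoeff {T : Fast} {W : WTab} (h : Checks D T W) (c : Fin D.rank → ℝ) {a b u : ℕ}
    (ha : a < D.nroots) (hb : b < D.nroots) {km : ℕ × ℤ} (hkm : km ∈ D.chainCoeff a b u) :
    1 ≤ km.1 ∧ lam D c u = km.1 * lam D c a + lam D c b := by
  rw [chainCoeff_eq, h.agree.ch_eq a (h.agree.hn ▸ ha) b (h.agree.hn ▸ hb)] at hkm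
  obtain ⟨L, hL, hkm⟩ := List.mem_flatMap.mp hkm
  have hL' : L = T.ent a b := by
    split_ifs at hL
    · simp at hL
    · simpa using hL
  subst hL'
  obtain ⟨q, hq, rfl⟩ := List.mem_map.mp hkm
  rw [List.mem_filter] at hq
  have h2 : q.1.1 = u := by simpa using hq.2
  have h3 : (T.ent a b)[q.2]? = some q.1 := List.mem_zipIdx_iff_getElem?.mp hq.1
  have h4 := lam_ent h c a b ha hb q.2 q.1 h3
  rw [h2] at h4
  exact ⟨by simp, h4⟩

theorem x_support_real (hD : D ∈ [chevG2, chevB2, chevD4, chevF4, chevE6, chevE7, chevE8])
    (a : Fin D.rank → ℝ) {r : ℕ} (hr : r < D.nroots) (t : F)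
    (row col : D.Idx) (hne : D.x F r t row col ≠ 0) :
    row = col ∨ ∃ k : ℕ, 1 ≤ k ∧ deg D a row = deg D a col + k * lam D a r := by
  obtain ⟨T, W, h⟩ := exists_checks D hD
  unfold ChevalleyDatum.x at hne
  rw [dif_pos hr] at hne
  rcases col with i | s
  · rcases row with i' | u
    · left
      by_contra hc
      apply hne
      have : i' ≠ i := fun e => hc (by rw [e])
      simp [xMat_def, this]
    · right
      by_cases hu : u = ⟨r, hr⟩
      · subst hu
        exact ⟨1, le_rfl, by simp [deg]⟩
      · exfalso
        apply hne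
        simp [xMat_def, hu]
  · simp only [xMat_def, Matrix.of_apply] at hne
    by_cases hs : s = ⟨r, hr⟩
    · rw [if_pos hs] at hne
      rcases row with i' | u
      · exact absurd rfl hne
      · left
        by_contra hc
        apply hne
        have : u ≠ ⟨r, hr⟩ := fun e => hc (by rw [e, hs])
        simp [this]
    · rw [if_neg hs] at hne
      by_cases hs2 : s.val = D.negIdx.getD r 0
      · rw [if_pos hs2] at hne
        have hd : lam D a s.val = - lam D a r := by
          rw [hs2]; exact lam_neg hD a hr
        rcases row with i' | u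
        · right
          exact ⟨1, le_rfl, by simp [deg, hd]⟩
        · by_cases hu : u = s
          · left; rw [hu]
          · simp only [if_neg hu] at hne
            by_cases hu2 : u = ⟨r, hr⟩
            · right
              subst hu2
              exact ⟨2, by norm_num, by simp only [deg, hd]; push_cast; ring⟩
            · rw [if_neg hu2] at hne
              exact absurd rfl hne
      · rw [if_neg hs2] at hne
        rcases row with i' | u
        · exact absurd rfl hne
        · by_cases hu : u = s
          · left; rw [hu]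
          · right
            simp only [if_neg hu, zero_add] at hne
            have : D.chainCoeff r s.val u.val ≠ [] := by
              intro e
              rw [e] at hne
              exact hne rfl
            obtain ⟨km, hkm⟩ := List.exists_mem_of_ne_nil _ this
            obtain ⟨h1, h2⟩ := lam_chainCoeff h a hr s.2 hkm
            exact ⟨km.1, h1, by simp only [deg]; rw [h2]; ring⟩

end Cfsg.Agent.Lib.Helper19.BT
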