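import Cfsg.Agent.Lib.Helper19.BT.PB

set_option autoImplicit false

namespace Cfsg.Agent.Lib.Helper19.BT

open Cfsg.Lie Matrix Cfsg.Agent.Lib.Helper17 Cfsg.Agent.Lib.Helper18 Cfsg.Agent.Lib.Helper36

variable {D : ChevalleyDatum} {F : Type*} [Field F]

/-! ## [C1] root elements and the gradings.  Models: Helper17.bdg_x, srg_x, levi_le_bdGroup (ChevLevi.lean), geg_x (ChevCent.lean).
hB := base_of_mem F hD;  (hB.xg r t : Matrix) = D.x F r t is rfl (hB.coe_xg);  hB.xg_inv r t : (xg r t)⁻¹ = xg r (-t).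
Diagonal entries for POSITIVE r:  filt_x_sub_one (triOK_of_mem hD) hr t a a (by omega) : (D.x F r t - 1) a a = 0  (see srg_x). -/

lemma c1_rs_x (hD : D ∈ [chevG2, chevB2, chevD4, chevF4, chevE6, chevE7, chevE8])
    (a : Fin D.rank → ℝ) {r : ℕ} (hr : r < D.nroots) (h0 : 0 ≤ lam D a r) (t : F) :
    Rs 0 (deg D a) (deg D a) (D.x F r t) := by
  intro i j hne
  rcases x_support_real hD a hr t i j hne with rfl | ⟨k, _, hk⟩
  · rw [add_zero]
  · rw [hk, add_zero]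
    have : (0 : ℝ) ≤ k * lam D a r := by positivity
    linarith

lemma c1_bd_x (hD : D ∈ [chevG2, chevB2, chevD4, chevF4, chevE6, chevE7, chevE8])
    (a : Fin D.rank → ℝ) {r : ℕ} (hr : r < D.nroots) (h0 : lam D a r = 0) (t : F) :
    Bd (deg D a) (D.x F r t) := by
  intro i j hne
  rcases x_support_real hD a hr t i j hne with rfl | ⟨k, _, hk⟩
  · rfl
  · rw [hk, h0]; ring

lemma c1_rs1_x (hD : D ∈ [chevG2, chevB2, chevD4, chevF4, chevE6, chevE7, chevE8])
    (a : Fin D.rank → ℝ) {r : ℕ} (hr : D.IsPosRoot r) (h1 : 1 ≤ lam D a r) (t : F) :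
    Rs 1 (deg D a) (deg D a) (D.x F r t - 1) := by
  intro i j hne
  have hab : i ≠ j := by
    rintro rfl
    exact hne (filt_x_sub_one (triOK_of_mem hD) hr t i i (by omega))
  rw [Matrix.sub_apply, Matrix.one_apply_ne hab, sub_zero] at hne
  rcases x_support_real hD a hr.1 t i j hne with e | ⟨k, hk1, hk⟩
  · exact absurd e hab
  · rw [hk]
    have hk' : (1 : ℝ) ≤ k := by exact_mod_cast hk1
    nlinarith

lemma c1_sr_x (hD : D ∈ [chevG2, chevB2, chevD4, chevF4, chevE6, chevE7, chevE8])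
    (a : Fin D.rank → ℝ) {r : ℕ} (hr : D.IsPosRoot r) (h1 : 0 < lam D a r) (t : F) :
    Sr (deg D a) (D.x F r t - 1) := by
  intro i j hne
  have hab : i ≠ j := by
    rintro rfl
    exact hne (filt_x_sub_one (triOK_of_mem hD) hr t i i (by omega))
  rw [Matrix.sub_apply, Matrix.one_apply_ne hab, sub_zero] at hne
  rcases x_support_real hD a hr.1 t i j hne with e | ⟨k, hk1, hk⟩
  · exact absurd e hab
  · rw [hk]
    have hk' : (1 : ℝ) ≤ k := by exact_mod_cast hk1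
    nlinarith

/- Tw g d d = Rs 0 d d g ∧ Rs 0 d d g⁻¹.  Entry (a,b) ≠ 0: x_support_real gives a = b (trivial) or deg a = deg b + k * lam ≥ deg b. -/
theorem xg_mem_pT (hD : D ∈ [chevG2, chevB2, chevD4, chevF4, chevE6, chevE7, chevE8])
    (a : Fin D.rank → ℝ) {r : ℕ} (hr : r < D.nroots) (h0 : 0 ≤ lam D a r) (t : F) :
    (base_of_mem F hD).xg r t ∈ pT F (deg D a) := by
  refine ⟨c1_rs_x hD a hr h0 t, ?_⟩
  rw [(base_of_mem F hD).xg_inv]
  exact c1_rs_x hD a hr h0 _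

theorem xg_mem_bT (hD : D ∈ [chevG2, chevB2, chevD4, chevF4, chevE6, chevE7, chevE8])
    (a : Fin D.rank → ℝ) {r : ℕ} (hr : r < D.nroots) (h0 : lam D a r = 0) (t : F) :
    (base_of_mem F hD).xg r t ∈ bT F (deg D a) := by
  refine ⟨c1_bd_x hD a hr h0 t, ?_⟩
  rw [(base_of_mem F hD).xg_inv]
  exact c1_bd_x hD a hr h0 _

/- (x - 1) a b ≠ 0 → a ≠ b (diagonal fact above) → x a b ≠ 0 → deg a = deg b + k * lam ≥ deg b + 1 (k ≥ 1, lam ≥ 1: nlinarith) -/
theorem xg_mem_uT (hD : D ∈ [chevG2, chevB2, chevD4, chevF4, chevE6, chevE7, chevE8])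
    (a : Fin D.rank → ℝ) {r : ℕ} (hr : D.IsPosRoot r) (h1 : 1 ≤ lam D a r) (t : F) :
    (base_of_mem F hD).xg r t ∈ uT F (deg D a) := by
  refine ⟨c1_rs1_x hD a hr h1 t, ?_⟩
  rw [(base_of_mem F hD).xg_inv]
  exact c1_rs1_x hD a hr h1 _

theorem xg_mem_sT (hD : D ∈ [chevG2, chevB2, chevD4, chevF4, chevE6, chevE7, chevE8])
    (a : Fin D.rank → ℝ) {r : ℕ} (hr : D.IsPosRoot r) (h1 : 0 < lam D a r) (t : F) :
    (base_of_mem F hD).xg r t ∈ sT F (deg D a) := by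
  refine ⟨c1_sr_x hD a hr h1 t, ?_⟩
  rw [(base_of_mem F hD).xg_inv]
  exact c1_sr_x hD a hr h1 _

/- elements of H are diagonal: obtain ⟨χ, _, h2⟩ := hB.exists_dg hg  (see the first half of levi_le_bdGroup) -/
theorem H_le_bT (hD : D ∈ [chevG2, chevB2, chevD4, chevF4, chevE6, chevE7, chevE8])
    (a : Fin D.rank → ℝ) : D.diagonalSubgroup F ≤ bT F (deg D a) := by
  have key : ∀ g ∈ D.diagonalSubgroup F, Bd (deg D a) (g : Matrix D.Idx D.Idx F) := by
    intro g hg i j hne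
    obtain ⟨χ, _, h2⟩ := (base_of_mem F hD).exists_dg hg
    by_cases hab : i = j
    · rw [hab]
    · rw [h2, dg, Matrix.diagonal_apply_ne _ hab] at hne
      exact absurd rfl hne
  intro g hg
  exact ⟨key g hg, key _ (inv_mem hg)⟩

end Cfsg.Agent.Lib.Helper19.BT
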