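import Cfsg.Agent.Lib.Helper19.BT.PC1
import Cfsg.Agent.Lib.Helper19.BT.PA2

set_option autoImplicit false

namespace Cfsg.Agent.Lib.Helper19.BT

open Cfsg.Lie Matrix Cfsg.Agent.Lib.Helper17 Cfsg.Agent.Lib.Helper18 Cfsg.Agent.Lib.Helper36

variable {D : ChevalleyDatum} {F : Type*} [Field F]

/-! ## [C2] the standard subgroups and the gradings.  Each: unfold the subgroup, sup_le / Subgroup.closure_le, rintro the generator,
rw [hB.eq_xg hg] (hB := base_of_mem F hD), apply the C1 lemma with the A2 sign lemma.  Models: Helper17.levi_le_bdGroup, urad_le_srGroup. -/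

/- B = U ⊔ H.  U: xg_mem_pT with lam_nonneg hD ha hr.   H: (H_le_bT hD a).trans (bT_le_pT _) -/
theorem B_le_pT (hD : D ∈ [chevG2, chevB2, chevD4, chevF4, chevE6, chevE7, chevE8])
    {a : Fin D.rank → ℝ} (ha : ∀ k, 0 ≤ a k) : D.borelSubgroup F ≤ pT F (deg D a) := by
  unfold ChevalleyDatum.borelSubgroup
  apply sup_le
  · unfold ChevalleyDatum.posUnipotent
    rw [Subgroup.closure_le]
    rintro g ⟨r, t, hr, hg⟩
    rw [(base_of_mem F hD).eq_xg hg]
    exact xg_mem_pT hD a hr.1 (lam_nonneg hD ha hr) t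
  · exact (H_le_bT hD a).trans (bT_le_pT _)

/- xg_mem_uT with one_le_lam_one -/
theorem U_le_uT_one (hD : D ∈ [chevG2, chevB2, chevD4, chevF4, chevE6, chevE7, chevE8]) :
    D.posUnipotent F ≤ uT F (deg D (fun _ => 1)) := by
  unfold ChevalleyDatum.posUnipotent
  rw [Subgroup.closure_le]
  rintro g ⟨r, t, hr, hg⟩
  rw [(base_of_mem F hD).eq_xg hg]
  exact xg_mem_uT hD _ hr (one_le_lam_one hD hr) t

/- xg_mem_sT with lam_pos -/
theorem urad_le_sT (hD : D ∈ [chevG2, chevB2, chevD4, chevF4, chevE6, chevE7, chevE8])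
    {a : Fin D.rank → ℝ} (ha : ∀ k, 0 ≤ a k) {J : Set ℕ} (hJ : ∀ k : Fin D.rank, a k = 0 → (k : ℕ) ∈ J) :
    D.unipotentRadical F J ≤ sT F (deg D a) := by
  unfold ChevalleyDatum.unipotentRadical
  rw [Subgroup.closure_le]
  rintro g ⟨r, t, hr, hrJ, hg⟩
  rw [(base_of_mem F hD).eq_xg hg]
  exact xg_mem_sT hD a hr (lam_pos hD ha hJ hr hrJ) t

/- H_le_bT and xg_mem_bT with lam_eq_zero -/
theorem levi_le_bT (hD : D ∈ [chevG2, chevB2, chevD4, chevF4, chevE6, chevE7, chevE8])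
    {a : Fin D.rank → ℝ} {J : Set ℕ} (hJ : ∀ k : Fin D.rank, (k : ℕ) ∈ J → a k = 0) :
    D.leviSubgroup F J ≤ bT F (deg D a) := by
  unfold ChevalleyDatum.leviSubgroup
  apply sup_le
  · exact H_le_bT hD a
  · rw [Subgroup.closure_le]
    rintro g ⟨r, t, hr, hg⟩
    rw [(base_of_mem F hD).eq_xg hg]
    exact xg_mem_bT hD a hr.1 (lam_eq_zero hD hJ hr) t

end Cfsg.Agent.Lib.Helper19.BT
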