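import Cfsg.Agent.Lib.Helper19.BT.PC1
import Cfsg.Agent.Lib.Helper18.ChevPerm

set_option autoImplicit false

namespace Cfsg.Agent.Lib.Helper19.BT

open Cfsg.Lie Matrix Cfsg.Agent.Lib.Helper17 Cfsg.Agent.Lib.Helper18 Cfsg.Agent.Lib.Helper36

variable {D : ChevalleyDatum} {F : Type*} [Field F]

/-! ## [D] the monomial group. -/

lemma rs_of_monShape {σ : ℕ → ℕ} {M : Matrix D.Idx D.Idx F} (h : MonShape D σ M)
    (a a' : Fin D.rank → ℝ) (hσ : ∀ s : Fin D.nroots, lam D a' (σ s) = lam D a s) :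
    Rs 0 (deg D a) (deg D a') M := by
  rintro (x | u) (y | s) hne
  · simp [deg]
  · exact absurd (h.1 x s) hne
  · exact absurd (h.2.1 y u) hne
  · have hu : (u : ℕ) = σ s := by
      by_contra hc
      exact hne (h.2.2 u s hc)
    show lam D a s + 0 ≤ lam D a' u
    rw [hu, hσ s, add_zero]

theorem tw_ng (hD : D ∈ [chevG2, chevB2, chevD4, chevF4, chevE6, chevE7, chevE8])
    (i : Fin D.rank) (a : Fin D.rank → ℝ) :
    Tw ((base_of_mem F hD).ng (D.simple i) 1) (deg D a) (deg D (refl D i a)) := by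
  have hT := tab_of_mem hD
  set hB := base_of_mem F hD with hBdef
  constructor
  · rw [hB.coe_ng]
    refine rs_of_monShape (hB.monShape_ng i.2) a _ ?_
    intro s
    rw [lam_refl hD i a (hT.refl_lt i s i.2 s.2), hT.refl_refl i s i.2 s.2]
  · have e : (hB.ng (D.simple i) 1)⁻¹ = hB.hg (D.simple i) (-1) * hB.nW [(i : ℕ)] := by
      rw [hB.ng_inv, hB.ng_eq_hg_mul, Base.nW_cons, Base.nW_nil, mul_one]
    rw [e]
    have hm : hB.hg (D.simple i) (-1) ∈ D.diagonalSubgroup F :=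
      hB.hg_mem (hT.simple_lt i i.2) (by simp)
    have hL : ∀ j ∈ [(i : ℕ)], j < D.rank := by
      intro j hj
      rw [List.mem_singleton] at hj
      rw [hj]; exact i.2
    refine rs_of_monShape (hB.monShape_hnW hm hL) _ a ?_
    intro s
    rw [wAct_cons, wAct_nil, lam_refl hD i a s.2]

theorem nrm_refl (hD : D ∈ [chevG2, chevB2, chevD4, chevF4, chevE6, chevE7, chevE8])
    (i : Fin D.rank) (a : Fin D.rank → ℝ) : nrm D (refl D i a) = nrm D a := by
  have hT := tab_of_mem hD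
  have hL : ∀ j ∈ [(i : ℕ)], j < D.rank := by
    intro j hj
    rw [List.mem_singleton] at hj
    rw [hj]; exact i.2
  unfold nrm
  have h1 : ∀ r : Fin D.nroots, (lam D (refl D i a) r) ^ 2 =
      (fun r : Fin D.nroots => (lam D a r) ^ 2) (wPerm hT [(i : ℕ)] hL r) := by
    intro r
    show _ = (lam D a ((wPerm hT [(i : ℕ)] hL r : Fin D.nroots) : ℕ)) ^ 2
    rw [wPerm_apply, wAct_cons, wAct_nil, lam_refl hD i a r.2]
  rw [Finset.sum_congr rfl (fun r _ => h1 r)]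
  exact Equiv.sum_comp (wPerm hT [(i : ℕ)] hL) (fun r : Fin D.nroots => (lam D a r) ^ 2)

theorem exists_tw_nW (hD : D ∈ [chevG2, chevB2, chevD4, chevF4, chevE6, chevE7, chevE8])
    (L : List ℕ) (hL : ∀ i ∈ L, i < D.rank) (a : Fin D.rank → ℝ) :
    ∃ a' : Fin D.rank → ℝ, Tw ((base_of_mem F hD).nW L) (deg D a) (deg D a') ∧
      nrm D a' = nrm D a := by
  induction L with
  | nil =>
    refine ⟨a, ?_, rfl⟩
    rw [Base.nW_nil]
    exact (pT F (deg D a)).one_mem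
  | cons i L ih =>
    obtain ⟨a₁, h1, h2⟩ := ih (fun j hj => hL j (by simp [hj]))
    have hi : i < D.rank := hL i (by simp)
    refine ⟨refl D ⟨i, hi⟩ a₁, ?_, by rw [nrm_refl hD, h2]⟩
    rw [Base.nW_cons]
    exact Tw.mul (tw_ng hD ⟨i, hi⟩ a₁) h1

theorem exists_tw_of_mem_N (hD : D ∈ [chevG2, chevB2, chevD4, chevF4, chevE6, chevE7, chevE8])
    {n : GL D.Idx F} (hn : n ∈ D.monomialSubgroup F) (a : Fin D.rank → ℝ) :
    ∃ a' : Fin D.rank → ℝ, Tw n (deg D a) (deg D a') ∧ nrm D a' = nrm D a := by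
  obtain ⟨h, hh, L, hL, rfl⟩ := (base_of_mem F hD).exists_word (tab_of_mem hD) hn
  obtain ⟨a', h1, h2⟩ := exists_tw_nW (F := F) hD L hL a
  refine ⟨a', ?_, h2⟩
  have h3 : Tw h (deg D a') (deg D a') := bT_le_pT _ (H_le_bT hD a' hh)
  exact Tw.mul h3 h1

end Cfsg.Agent.Lib.Helper19.BT
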