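import Cfsg.Agent.Lib.Helper19.BT.PD

set_option autoImplicit false

namespace Cfsg.Agent.Lib.Helper19.BT

open Cfsg.Lie Matrix Cfsg.Agent.Lib.Helper17 Cfsg.Agent.Lib.Helper18 Cfsg.Agent.Lib.Helper36

variable {D : ChevalleyDatum} {F : Type*} [Field F]

/-! ## [E] every functional is conjugate to a dominant one. -/

open Classical in
/-- the positive roots on which `a` is negative -/
noncomputable def negSet (D : ChevalleyDatum) (a : Fin D.rank → ℝ) : Finset ℕ :=
  (Finset.range D.nroots).filter (fun r => D.IsPosRoot r ∧ lam D a r < 0)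

theorem mem_negSet (a : Fin D.rank → ℝ) (r : ℕ) :
    r ∈ negSet D a ↔ D.IsPosRoot r ∧ lam D a r < 0 := by
  unfold negSet
  rw [Finset.mem_filter, Finset.mem_range]
  exact ⟨fun h => h.2, fun h => ⟨h.1.1, h⟩⟩

theorem card_negSet_refl_lt (hD : D ∈ [chevG2, chevB2, chevD4, chevF4, chevE6, chevE7, chevE8])
    (a : Fin D.rank → ℝ) (i : Fin D.rank) (hi : a i < 0) :
    (negSet D (refl D i a)).card < (negSet D a).card := by
  have hT := tab_of_mem hD
  have hdt : (0 : ℝ) < (dt D : ℝ) := by
    have := dt_pos hD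
    exact_mod_cast this
  have hsi : lam D a (D.simple i) < 0 := by
    rw [lam_simple hD]
    exact mul_neg_of_pos_of_neg hdt hi
  have hslt : D.simple i < D.nroots := hT.simple_lt i i.2
  have hmem : D.simple i ∈ negSet D a := (mem_negSet a _).2 ⟨hT.isPos_simple i.2, hsi⟩
  have hle : (negSet D (refl D i a)).card ≤ ((negSet D a).erase (D.simple i)).card := by
    apply Finset.card_le_card_of_injOn (fun r => D.reflectRoot i r)
    · intro r hr
      have hr' := (mem_negSet _ r).1 (Finset.mem_coe.1 hr)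
      obtain ⟨hpos, hneg⟩ := hr'
      have hrlt : r < D.nroots := hpos.1
      rw [lam_refl hD i a hrlt] at hneg
      have hne : r ≠ D.simple i := by
        rintro rfl
        rw [hT.refl_simple' i.2, lam_neg hD a hslt] at hneg
        linarith
      rw [Finset.mem_coe, Finset.mem_erase]
      refine ⟨?_, (mem_negSet a _).2 ⟨hT.refl_isPos i.2 hpos hne, hneg⟩⟩
      intro he
      have h1 : r = D.reflectRoot i (D.simple i) := by
        rw [← he, hT.refl_refl i r i.2 hrlt]
      rw [hT.refl_simple' i.2] at h1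
      rw [h1] at hpos
      exact hT.not_pos_and_neg hpos (hT.isNeg_neg (hT.isPos_simple i.2))
    · intro r hr r' hr' he
      have h1 := ((mem_negSet _ r).1 (Finset.mem_coe.1 hr)).1.1
      have h2 := ((mem_negSet _ r').1 (Finset.mem_coe.1 hr')).1.1
      have he' : D.reflectRoot i r = D.reflectRoot i r' := he
      rw [← hT.refl_refl i r i.2 h1, he', hT.refl_refl i r' i.2 h2]
  rw [Finset.card_erase_of_mem hmem] at hle
  have : 0 < (negSet D a).card := Finset.card_pos.2 ⟨_, hmem⟩
  omega

theorem exists_dominant (F : Type*) [Field F]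
    (hD : D ∈ [chevG2, chevB2, chevD4, chevF4, chevE6, chevE7, chevE8]) (a : Fin D.rank → ℝ) :
    ∃ n ∈ D.monomialSubgroup F, ∃ a' : Fin D.rank → ℝ,
      Tw n (deg D a) (deg D a') ∧ nrm D a' = nrm D a ∧ ∀ k, 0 ≤ a' k := by
  have hT := tab_of_mem hD
  induction hc : (negSet D a).card using Nat.strong_induction_on generalizing a with
  | _ c ih =>
    by_cases hdom : ∀ k, 0 ≤ a k
    · exact ⟨1, one_mem _, a, (pT F (deg D a)).one_mem, rfl, hdom⟩
    · push Not at hdom
      obtain ⟨i, hi⟩ := hdom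
      have hlt := card_negSet_refl_lt hD a i hi
      rw [hc] at hlt
      obtain ⟨n₁, hn₁, a', h₁, h₂, h₃⟩ := ih _ hlt (refl D i a) rfl
      refine ⟨n₁ * (base_of_mem F hD).ng (D.simple i) 1,
        mul_mem hn₁ ((base_of_mem F hD).ng_one_mem (hT.simple_lt i i.2)), a',
        Tw.mul h₁ (tw_ng hD i a), ?_, h₃⟩
      rw [h₂, nrm_refl hD]

end Cfsg.Agent.Lib.Helper19.BT
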