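import Cfsg.Agent.Lib.Helper19.BT.PC2
import Cfsg.Agent.Lib.Helper18.ChevPerm

set_option autoImplicit false

namespace Cfsg.Agent.Lib.Helper19.BT

open Cfsg.Lie Matrix Cfsg.Agent.Lib.Helper17 Cfsg.Agent.Lib.Helper18 Cfsg.Agent.Lib.Helper36

variable {D : ChevalleyDatum} {F : Type*} [Field F]

/-! ## [F] the stabiliser of the filtration lies in the parabolic subgroup. -/

theorem pT_inf_group_le (hD : D ∈ [chevG2, chevB2, chevD4, chevF4, chevE6, chevE7, chevE8])
    {a : Fin D.rank → ℝ} (ha : ∀ k, 0 ≤ a k) {J : Set ℕ} (hJ : ∀ k : Fin D.rank, a k = 0 → (k : ℕ) ∈ J) :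
    pT F (deg D a) ⊓ D.group F ≤ D.parabolicSubgroup F J := by
  have hB := base_of_mem F hD
  have hT := tab_of_mem hD
  obtain ⟨P, hPB, -, hPS⟩ := Cfsg.Agent.S1042.result (F := F) D hD
  set K := pT F (deg D a) ⊓ D.group F with hK
  have hBK : P.B ≤ K.subgroupOf (D.group F) := by
    rw [hPB]
    intro g hg
    rw [Subgroup.mem_subgroupOf] at hg ⊢
    exact ⟨B_le_pT hD ha hg, g.2⟩
  obtain ⟨I, hI, hKI⟩ := Cfsg.Agent.S0311.result P (K.subgroupOf (D.group F)) hBK
  have hle : P.parabolic I ≤ (D.parabolicSubgroup F J).subgroupOf (D.group F) := by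
    apply sup_le
    · rw [hPB]
      intro g hg
      rw [Subgroup.mem_subgroupOf] at hg ⊢
      exact B_le_parabolic J hg
    · rw [Subgroup.closure_le]
      intro n hn
      have hnS := hI hn
      rw [hPS] at hnS
      obtain ⟨i, hi, hni⟩ := hnS
      have hnK : n ∈ K.subgroupOf (D.group F) := by
        rw [hKI]
        exact (le_sup_right : _ ≤ P.parabolic I) (Subgroup.subset_closure hn)
      rw [Subgroup.mem_subgroupOf] at hnK
      show (n : GL D.Idx F) ∈ D.parabolicSubgroup F J
      by_cases hiJ : i ∈ J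
      · exact (le_sup_right : _ ≤ D.parabolicSubgroup F J) (Subgroup.subset_closure ⟨i, hiJ, hi, hni⟩)
      · exfalso
        have hai : a ⟨i, hi⟩ ≠ 0 := fun h0 => hiJ (hJ ⟨i, hi⟩ h0)
        have hpos : 0 < a ⟨i, hi⟩ := lt_of_le_of_ne (ha _) (Ne.symm hai)
        have hlam : 0 < lam D a (D.simple i) := by
          have h1 := lam_simple hD a ⟨i, hi⟩
          have h2 : lam D a (D.simple i) = (dt D : ℝ) * a ⟨i, hi⟩ := h1
          rw [h2]
          exact mul_pos (by exact_mod_cast dt_pos hD) hpos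
        have hsl := hT.simple_lt i hi
        have hshape : MonShape D (D.reflectRoot i) ((n : GL D.Idx F) : Matrix D.Idx D.Idx F) := by
          rw [hni]; exact hB.monShape_ng hi
        have hex : ∃ row, ((n : GL D.Idx F) : Matrix D.Idx D.Idx F) row
            (Sum.inr ⟨D.simple i, hsl⟩) ≠ 0 := by
          by_contra hc
          push Not at hc
          have h1 : (((n : GL D.Idx F)⁻¹ : GL D.Idx F) : Matrix D.Idx D.Idx F) *
              ((n : GL D.Idx F) : Matrix D.Idx D.Idx F) = 1 := by
            rw [← Units.val_mul, inv_mul_cancel, Units.val_one]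
          have h2 := congrFun (congrFun h1 (Sum.inr ⟨D.simple i, hsl⟩)) (Sum.inr ⟨D.simple i, hsl⟩)
          rw [Matrix.mul_apply, Matrix.one_apply_eq] at h2
          rw [Finset.sum_eq_zero (fun k _ => by rw [hc k, mul_zero])] at h2
          exact zero_ne_one h2
        obtain ⟨row, hrow⟩ := hex
        rcases row with j | u
        · exact hrow (hshape.1 j _)
        · have hu : (u : ℕ) = D.reflectRoot i (D.simple i) := by
            by_contra hc
            exact hrow (hshape.2.2 u ⟨D.simple i, hsl⟩ hc)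
          have h3 := hnK.1.1 (Sum.inr u) (Sum.inr ⟨D.simple i, hsl⟩) hrow
          have h4 : lam D a (D.simple i) + 0 ≤ lam D a u := h3
          rw [hu, hT.refl_simple i hi, ← hT.neg_eq _ hsl, lam_neg hD a hsl] at h4
          linarith
  intro g hg
  have h1 : (⟨g, hg.2⟩ : D.group F) ∈ K.subgroupOf (D.group F) := by
    rw [Subgroup.mem_subgroupOf]; exact hg
  rw [hKI] at h1
  exact hle h1

end Cfsg.Agent.Lib.Helper19.BT
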