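import Cfsg.Agent.Lib.Helper19.BT.PF
import Cfsg.Agent.S1048

set_option autoImplicit false

namespace Cfsg.Agent.Lib.Helper19.BT

open Cfsg.Lie Matrix Cfsg.Agent.Lib.Helper17 Cfsg.Agent.Lib.Helper18 Cfsg.Agent.Lib.Helper36

variable {D : ChevalleyDatum} {F : Type*} [Field F]

/-! ## [G] the unipotent part lies in the unipotent radical.
g ∈ uT ⊓ G.  g ∈ P_J by pT_inf_group_le (uT_le_pT).  h48 := Cfsg.Agent.S1048.result (F := F) D hD J :
P_J ≤ normalizer U_J ∧ U_J ⊔ L_J = P_J ∧ _.  So g = u * l with u ∈ U_J, l ∈ L_J  (L_J ≤ P_J normalises U_J; e.g. pass to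
subgroupOf P_J where U_J is normal and use Subgroup.mul_normal / mem_sup, or closure induction on U_J ⊔ L_J).
l = u⁻¹ * g ∈ sT (urad_le_sT hD ha (fun k => (hJ k).mp), uT_le_sT) and l ∈ bT (levi_le_bT hD (fun k => (hJ k).mpr)),
so l = 1 by sT_inf_bT, and g = u. -/

theorem uT_inf_group_le (hD : D ∈ [chevG2, chevB2, chevD4, chevF4, chevE6, chevE7, chevE8])
    {a : Fin D.rank → ℝ} (ha : ∀ k, 0 ≤ a k) {J : Set ℕ} (hJ : ∀ k : Fin D.rank, a k = 0 ↔ (k : ℕ) ∈ J) :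
    uT F (deg D a) ⊓ D.group F ≤ D.unipotentRadical F J := by
  rintro g ⟨hgu, hgG⟩
  have hgP : g ∈ D.parabolicSubgroup F J :=
    pT_inf_group_le hD ha (fun k => (hJ k).mp) ⟨uT_le_pT _ hgu, hgG⟩
  obtain ⟨h1, h2, -⟩ := Cfsg.Agent.S1048.result (F := F) D hD J
  have hLN : D.leviSubgroup F J ≤ Subgroup.normalizer (D.unipotentRadical F J : Set (GL D.Idx F)) := by
    refine le_trans ?_ h1
    rw [← h2]
    exact le_sup_right
  rw [← h2, ← SetLike.mem_coe, Subgroup.coe_mul_of_right_le_normalizer_left _ _ hLN,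
    Set.mem_mul] at hgP
  obtain ⟨u, hu, l, hl, rfl⟩ := hgP
  have hus : u ∈ sT F (deg D a) := urad_le_sT hD ha (fun k => (hJ k).mp) hu
  have hls : l ∈ sT F (deg D a) := by
    have h3 : u⁻¹ * (u * l) ∈ sT F (deg D a) :=
      Subgroup.mul_mem _ (Subgroup.inv_mem _ hus) (uT_le_sT _ hgu)
    rwa [inv_mul_cancel_left] at h3
  have hlb : l ∈ bT F (deg D a) := levi_le_bT hD (fun k => (hJ k).mpr) hl
  have hl1 : l ∈ sT F (deg D a) ⊓ bT F (deg D a) := ⟨hls, hlb⟩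
  rw [sT_inf_bT, Subgroup.mem_bot] at hl1
  rw [hl1, mul_one]
  exact hu

end Cfsg.Agent.Lib.Helper19.BT
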