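import Cfsg.Agent.Lib.Helper19.BT.PC2
import Cfsg.Agent.Lib.Helper36.ChevSyl

set_option autoImplicit false

namespace Cfsg.Agent.Lib.Helper19.BT

open Cfsg.Lie Matrix Cfsg.Agent.Lib.Helper17 Cfsg.Agent.Lib.Helper18 Cfsg.Agent.Lib.Helper36

variable {D : ChevalleyDatum} {F : Type*} [Field F]

/-! ## [H] feasibility of the height functional (Sylow conjugacy). -/

theorem feas_one [Fintype F] (p : ℕ) [Fact p.Prime] [CharP F p]
    (hD : D ∈ [chevG2, chevB2, chevD4, chevF4, chevE6, chevE7, chevE8])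
    (Q : Subgroup (GL D.Idx F)) (hQG : Q ≤ D.group F) (hQ : IsPGroup p ↥Q) :
    Feas D Q (fun _ => 1) := by
  classical
  obtain ⟨P, hP⟩ := Cfsg.Agent.Lib.Helper36.exists_sylow_U (F := F) p hD
  have hQ' : IsPGroup p ↥(Q.subgroupOf (D.group F)) := hQ.comap_subtype
  obtain ⟨P', hP'⟩ := hQ'.exists_le_sylow
  obtain ⟨g, hg⟩ := MulAction.exists_smul_eq (↥(D.group F)) P' P
  refine ⟨(g : GL D.Idx F)⁻¹, inv_mem g.2, fun x hx => ?_⟩
  apply U_le_uT_one hD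
  have h1 : (⟨x, hQG hx⟩ : ↥(D.group F)) ∈ (P' : Subgroup ↥(D.group F)) :=
    hP' (Subgroup.mem_subgroupOf.2 hx)
  have h2 : g * ⟨x, hQG hx⟩ * g⁻¹ ∈ (P : Subgroup ↥(D.group F)) := by
    rw [← hg, Sylow.coe_subgroup_smul]
    exact ⟨_, h1, rfl⟩
  rw [hP, Subgroup.mem_subgroupOf] at h2
  simpa using h2

end Cfsg.Agent.Lib.Helper19.BT
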