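import Cfsg.Agent.Lib.Helper19.BT.PA1

set_option autoImplicit false

namespace Cfsg.Agent.Lib.Helper19.BT

open Cfsg.Lie Matrix Cfsg.Agent.Lib.Helper17 Cfsg.Agent.Lib.Helper18 Cfsg.Agent.Lib.Helper36

variable {D : ChevalleyDatum} {F : Type*} [Field F]

/-! ## [I] existence of an optimal functional (topology on Fin D.rank → ℝ). -/

theorem continuous_lam (r : ℕ) : Continuous (fun a : Fin D.rank → ℝ => lam D a r) := by
  unfold lam
  exact continuous_finsetSum _ (fun k _ => (continuous_apply k).mul continuous_const)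

theorem continuous_deg (x : D.Idx) : Continuous (fun a : Fin D.rank → ℝ => deg D a x) := by
  rcases x with i | s
  · exact continuous_const
  · exact continuous_lam s.val

theorem continuous_nrm : Continuous (fun a : Fin D.rank → ℝ => nrm D a) := by
  unfold nrm
  exact continuous_finsetSum _ (fun r _ => (continuous_lam r.val).pow 2)

theorem isClosed_Rs (M : Matrix D.Idx D.Idx F) :
    IsClosed {a : Fin D.rank → ℝ | Rs 1 (deg D a) (deg D a) M} := by
  have : {a : Fin D.rank → ℝ | Rs 1 (deg D a) (deg D a) M} =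
      ⋂ x, ⋂ y, {a : Fin D.rank → ℝ | M x y ≠ 0 → deg D a y + 1 ≤ deg D a x} := by
    ext a
    simp only [Set.mem_ofPred_eq, Set.mem_iInter]
    rfl
  rw [this]
  apply isClosed_iInter
  intro x
  apply isClosed_iInter
  intro y
  by_cases h : M x y = 0
  · simp [h]
  · simp only [ne_eq, h, not_false_eq_true, forall_const]
    exact isClosed_le ((continuous_deg y).add continuous_const) (continuous_deg x)

theorem isClosed_uT (g : GL D.Idx F) : IsClosed {a : Fin D.rank → ℝ | g ∈ uT F (deg D a)} := by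
  have : {a : Fin D.rank → ℝ | g ∈ uT F (deg D a)} =
      {a : Fin D.rank → ℝ | Rs 1 (deg D a) (deg D a) ((g : Matrix D.Idx D.Idx F) - 1)} ∩
      {a : Fin D.rank → ℝ | Rs 1 (deg D a) (deg D a) (((g⁻¹ : GL D.Idx F) : Matrix D.Idx D.Idx F) - 1)} := by
    ext a
    rfl
  rw [this]
  exact (isClosed_Rs _).inter (isClosed_Rs _)

theorem isClosed_feas [Fintype F] (Q : Subgroup (GL D.Idx F)) : IsClosed {a | Feas D Q a} := by
  classical
  have hfin : Finite (GL D.Idx F) := inferInstance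
  have : {a | Feas D Q a} = ⋃ g ∈ (D.group F : Set (GL D.Idx F)), ⋂ x ∈ (Q : Set (GL D.Idx F)),
      {a : Fin D.rank → ℝ | g⁻¹ * x * g ∈ uT F (deg D a)} := by
    ext a
    simp only [Set.mem_ofPred_eq, Set.mem_iUnion, Set.mem_iInter, SetLike.mem_coe, exists_prop]
    rfl
  rw [this]
  apply (Set.toFinite _).isClosed_biUnion
  intro g _
  apply isClosed_biInter
  intro x _
  exact isClosed_uT _

theorem sq_le_nrm (hD : D ∈ [chevG2, chevB2, chevD4, chevF4, chevE6, chevE7, chevE8])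
    (a : Fin D.rank → ℝ) (k : Fin D.rank) : (a k) ^ 2 ≤ nrm D a := by
  have h1 : (lam D a (D.simple k)) ^ 2 ≤ nrm D a := by
    obtain ⟨r0, hr0⟩ : ∃ r0 : Fin D.nroots, r0.val = D.simple k :=
      ⟨⟨D.simple k, (tab_of_mem hD).simple_lt k k.2⟩, rfl⟩
    rw [← hr0]
    have h0 : ∀ r ∈ (Finset.univ : Finset (Fin D.nroots)), 0 ≤ (lam D a r.val) ^ 2 :=
      fun r _ => sq_nonneg _
    exact Finset.single_le_sum h0 (Finset.mem_univ r0)
  rw [lam_simple hD] at h1
  have h2 : (1 : ℝ) ≤ (dt D : ℝ) := by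
    have := dt_pos hD
    exact_mod_cast this
  have h3 : (a k) ^ 2 ≤ ((dt D : ℝ) * a k) ^ 2 := by
    rw [mul_pow]
    have : (1 : ℝ) ≤ (dt D : ℝ) ^ 2 := by nlinarith
    nlinarith [sq_nonneg (a k)]
  linarith

theorem exists_min [Fintype F] (hD : D ∈ [chevG2, chevB2, chevD4, chevF4, chevE6, chevE7, chevE8])
    (Q : Subgroup (GL D.Idx F)) (h : ∃ a, Feas D Q a) :
    ∃ a₀, Feas D Q a₀ ∧ ∀ a, Feas D Q a → nrm D a₀ ≤ nrm D a := by
  obtain ⟨a₁, h₁⟩ := h
  have hKc : IsClosed ({a | Feas D Q a} ∩ {a | nrm D a ≤ nrm D a₁}) :=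
    (isClosed_feas Q).inter (isClosed_le continuous_nrm continuous_const)
  have hsub : ({a | Feas D Q a} ∩ {a | nrm D a ≤ nrm D a₁}) ⊆
      Metric.closedBall (0 : Fin D.rank → ℝ) (Real.sqrt (nrm D a₁)) := by
    rintro a ⟨-, ha⟩
    rw [mem_closedBall_zero_iff, pi_norm_le_iff_of_nonneg (Real.sqrt_nonneg _)]
    intro k
    rw [Real.norm_eq_abs]
    exact Real.abs_le_sqrt ((sq_le_nrm hD a k).trans ha)
  have hK : IsCompact ({a | Feas D Q a} ∩ {a | nrm D a ≤ nrm D a₁}) :=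
    (isCompact_closedBall _ _).of_isClosed_subset hKc hsub
  obtain ⟨a₀, ha₀, hmin⟩ := hK.exists_isMinOn ⟨a₁, h₁, le_refl (nrm D a₁)⟩ continuous_nrm.continuousOn
  refine ⟨a₀, ha₀.1, fun a ha => ?_⟩
  by_cases hle : nrm D a ≤ nrm D a₁
  · exact hmin ⟨ha, hle⟩
  · push Not at hle
    exact (ha₀.2.trans hle.le)

end Cfsg.Agent.Lib.Helper19.BT
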