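import Cfsg.Agent.Lib.Helper19.BT.PA1

set_option autoImplicit false

namespace Cfsg.Agent.Lib.Helper19.BT

open Cfsg.Lie Matrix Cfsg.Agent.Lib.Helper17 Cfsg.Agent.Lib.Helper18 Cfsg.Agent.Lib.Helper36

variable {D : ChevalleyDatum} {F : Type*} [Field F]

/-! ## [J] strict convexity.
With x r = lam a r, y r = lam a' r:  nrm mid = Σ ((x+y)/2)^2 (lam_mid) = nrm a / 2 + nrm a' / 2 - Σ ((x-y)/2)^2  (Finset.sum_add_distrib.., ring).
h1, h2 give Σ ((x r - y r)/2)^2 ≤ 0, so every term is 0 (Finset.sum_eq_zero_iff_of_nonneg), so y r = x r for r : Fin D.nroots.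
deg: funext; inl: rfl; inr s: the above. -/

theorem deg_eq_of_mid (a a' : Fin D.rank → ℝ) (h1 : nrm D a' = nrm D a)
    (h2 : nrm D a ≤ nrm D (fun k => (a k + a' k) / 2)) : deg D a' = deg D a := by
  have e : nrm D (fun k => (a k + a' k) / 2) + ∑ r : Fin D.nroots, ((lam D a r - lam D a' r) / 2) ^ 2
      = nrm D a / 2 + nrm D a' / 2 := by
    unfold nrm
    simp only [lam_mid]
    rw [← Finset.sum_add_distrib, Finset.sum_div, Finset.sum_div, ← Finset.sum_add_distrib]
    apply Finset.sum_congr rfl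
    intro r _
    ring
  have h3 : ∑ r : Fin D.nroots, ((lam D a r - lam D a' r) / 2) ^ 2 ≤ 0 := by
    rw [h1] at e
    linarith
  have h4 : ∑ r : Fin D.nroots, ((lam D a r - lam D a' r) / 2) ^ 2 = 0 :=
    le_antisymm h3 (Finset.sum_nonneg (fun r _ => sq_nonneg _))
  rw [Finset.sum_eq_zero_iff_of_nonneg (fun r _ => sq_nonneg _)] at h4
  funext x
  rcases x with i | s
  · rfl
  · have h5 := h4 s (Finset.mem_univ s)
    have h6 : (lam D a s - lam D a' s) / 2 = 0 := by simpa using h5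
    show lam D a' s = lam D a s
    linarith

end Cfsg.Agent.Lib.Helper19.BT
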