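import Cfsg.Agent.Lib.Helper19.BT.PE
import Cfsg.Agent.Lib.Helper19.BT.PG
import Cfsg.Agent.Lib.Helper19.BT.PH
import Cfsg.Agent.Lib.Helper19.BT.PI
import Cfsg.Agent.Lib.Helper19.BT.PJ
import Cfsg.Agent.S1100

set_option autoImplicit false

namespace Cfsg.Agent.Lib.Helper19.BT

open Cfsg.Lie Matrix Cfsg.Agent.Lib.Helper17 Cfsg.Agent.Lib.Helper18 Cfsg.Agent.Lib.Helper36

variable {D : ChevalleyDatum} {F : Type*} [Field F]

/-! ## [K] assembly -/

theorem Feas.tw {Q : Subgroup (GL D.Idx F)} {a a' : Fin D.rank → ℝ} (h : Feas D Q a)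
    {n : GL D.Idx F} (hn : n ∈ D.group F) (ht : Tw n (deg D a) (deg D a')) : Feas D Q a' := by
  obtain ⟨g, hg, h⟩ := h
  refine ⟨g * n⁻¹, mul_mem hg (inv_mem hn), fun x hx => ?_⟩
  have e : (g * n⁻¹)⁻¹ * x * (g * n⁻¹) = n * (g⁻¹ * x * g) * n⁻¹ := by group
  rw [e]
  exact ht.conj_mem (h x hx)

theorem borel_tits [Fintype F] (p : ℕ) [Fact p.Prime] [CharP F p]
    (hD : D ∈ [chevG2, chevB2, chevD4, chevF4, chevE6, chevE7, chevE8])
    (Q : Subgroup (GL D.Idx F)) (hQG : Q ≤ D.group F) (hQ : IsPGroup p ↥Q) (hne : Q ≠ ⊥) :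
    ∃ g ∈ D.group F, ∃ J : Set ℕ, (∃ i, i < D.rank ∧ i ∉ J) ∧
      Subgroup.normalizer (Q : Set (GL D.Idx F)) ⊓ D.group F ≤
        (D.parabolicSubgroup F J).map (MulAut.conj g).toMonoidHom ∧
      Q ≤ (D.unipotentRadical F J).map (MulAut.conj g).toMonoidHom := by
  have hB := base_of_mem F hD
  have hT := tab_of_mem hD
  obtain ⟨a₁, hf₁, hmin₁⟩ := exists_min hD Q ⟨_, feas_one p hD Q hQG hQ⟩
  obtain ⟨n₁, hn₁, a₀, ht₁, hnrm, hdom⟩ := exists_dominant F hD a₁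
  have hf₀ : Feas D Q a₀ := hf₁.tw (hB.N_le_group hT hn₁) ht₁
  have hmin : ∀ a, Feas D Q a → nrm D a₀ ≤ nrm D a := fun a ha => hnrm ▸ hmin₁ a ha
  obtain ⟨g₀, hg₀, hQ₀⟩ := hf₀
  set J : Set ℕ := {k | ∃ h : k < D.rank, a₀ ⟨k, h⟩ = 0} with hJdef
  have hJ : ∀ k : Fin D.rank, a₀ k = 0 ↔ (k : ℕ) ∈ J := by
    intro k
    constructor
    · intro h; exact ⟨k.2, h⟩
    · rintro ⟨_, h⟩; exact h
  have hBp : D.borelSubgroup F ≤ pT F (deg D a₀) := B_le_pT hD hdom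
  refine ⟨g₀, hg₀, J, ?_, ?_, ?_⟩
  · -- `J` is proper
    by_contra hc
    push Not at hc
    have h0 : a₀ = fun _ => 0 := by
      funext k
      exact (hJ k).mpr (hc k k.2)
    have hd : deg D a₀ = fun _ => 0 := by
      funext i
      rcases i with i | s
      · rfl
      · show lam D a₀ s = 0
        rw [h0]; simp [lam]
    apply hne
    rw [eq_bot_iff]
    intro x hx
    have h1 := hQ₀ x hx
    rw [hd, uT_zero, Subgroup.mem_bot] at h1
    rw [Subgroup.mem_bot]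
    have : x = g₀ * (g₀⁻¹ * x * g₀) * g₀⁻¹ := by group
    rw [this, h1]; group
  · -- the normaliser
    rintro x ⟨hxN, hxG⟩
    have hy : g₀⁻¹ * x * g₀ ∈ D.group F := mul_mem (mul_mem (inv_mem hg₀) hxG) hg₀
    obtain ⟨b, hb, n, hn, u, hu, hy'⟩ := (Cfsg.Agent.S1100.result (F := F) D hD).1 _ hy
    have huB : u ∈ D.borelSubgroup F := by
      refine (le_sup_left : D.posUnipotent F ≤ D.borelSubgroup F) ?_
      refine Subgroup.closure_mono ?_ hu
      rintro g ⟨r, t, hr, -, hg⟩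
      exact ⟨r, t, hr, hg⟩
    obtain ⟨a', ht, hn'⟩ := exists_tw_of_mem_N hD hn a₀
    have hfm : Feas D Q (fun k => (a₀ k + a' k) / 2) := by
      refine ⟨g₀ * b, mul_mem hg₀ (hB.B_le_group hT hb), fun q hq => ?_⟩
      rw [deg_mid]
      apply uT_inf_le
      constructor
      · have e : (g₀ * b)⁻¹ * q * (g₀ * b) = b⁻¹ * (g₀⁻¹ * q * g₀) * (b⁻¹)⁻¹ := by group
        rw [e]
        exact Tw.conj_mem (hBp (inv_mem hb)) (hQ₀ q hq)
      · have hq' : x⁻¹ * q * x ∈ Q := by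
          have := (Subgroup.mem_normalizer_iff.mp (inv_mem hxN) q).mp hq
          rwa [inv_inv] at this
        have e : (g₀ * b)⁻¹ * q * (g₀ * b) =
            n * (u * (g₀⁻¹ * (x⁻¹ * q * x) * g₀) * u⁻¹) * n⁻¹ := by
          have hx : x = g₀ * (b * n * u) * g₀⁻¹ := by rw [← hy']; group
          rw [hx]; group
        rw [e]
        exact ht.conj_mem (Tw.conj_mem (hBp huB) (hQ₀ _ hq'))
    have hdeg : deg D a' = deg D a₀ := deg_eq_of_mid a₀ a' hn' (hmin _ hfm)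
    rw [hdeg] at ht
    have hyP : g₀⁻¹ * x * g₀ ∈ pT F (deg D a₀) := by
      rw [hy']
      exact mul_mem (mul_mem (hBp hb) ht) (hBp huB)
    have := pT_inf_group_le hD hdom (fun k => (hJ k).mp) ⟨hyP, hy⟩
    refine ⟨_, this, ?_⟩
    simp only [MulEquiv.coe_toMonoidHom, MulAut.conj_apply]
    group
  · intro q hq
    have h1 : g₀⁻¹ * q * g₀ ∈ D.unipotentRadical F J :=
      uT_inf_group_le hD hdom hJ
        ⟨hQ₀ q hq, (D.group F).mul_mem ((D.group F).mul_mem ((D.group F).inv_mem hg₀) (hQG hq)) hg₀⟩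
    refine ⟨_, h1, ?_⟩
    simp only [MulEquiv.coe_toMonoidHom, MulAut.conj_apply]
    group

end Cfsg.Agent.Lib.Helper19.BT
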