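import Cfsg.Agent.Lib.Helper19.BT.Defs

set_option autoImplicit false

/-! Table checks for the Borel--Tits argument. -/

namespace Cfsg.Agent.Lib.Helper19.BT

open Cfsg.Lie Matrix Cfsg.Agent.Lib.Helper17 Cfsg.Agent.Lib.Helper18 Cfsg.Agent.Lib.Helper36

/-- Table check: `rcf (simple k) l = dt δ_{kl}` and `0 < dt`. -/
def t1OK (D : ChevalleyDatum) : Bool :=
  decide (0 < dt D) && (List.range D.rank).all fun k => (List.range D.rank).all fun l =>
    decide (rcf D (D.simple k) l = if k = l then dt D else 0)

/-- Table check: Cartan matrix times `adjTab` is `dt`. -/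
def t2OK (D : ChevalleyDatum) : Bool :=
  (List.range D.rank).all fun i => (List.range D.rank).all fun j =>
    decide (((List.range D.rank).map fun l =>
      D.cartan i (D.simple l) * ((adjTab D).getD l []).getD j 0).sum = if i = j then dt D else 0)

theorem t1OK_of_mem {D : ChevalleyDatum}
    (hD : D ∈ [chevG2, chevB2, chevD4, chevF4, chevE6, chevE7, chevE8]) : t1OK D = true := by
  simp only [List.mem_cons, List.not_mem_nil, or_false] at hD
  rcases hD with rfl | rfl | rfl | rfl | rfl | rfl | rfl <;> decide +kernel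

theorem t2OK_of_mem {D : ChevalleyDatum}
    (hD : D ∈ [chevG2, chevB2, chevD4, chevF4, chevE6, chevE7, chevE8]) : t2OK D = true := by
  simp only [List.mem_cons, List.not_mem_nil, or_false] at hD
  rcases hD with rfl | rfl | rfl | rfl | rfl | rfl | rfl <;> decide +kernel

variable {D : ChevalleyDatum}

theorem dt_pos (hD : D ∈ [chevG2, chevB2, chevD4, chevF4, chevE6, chevE7, chevE8]) : 0 < dt D := by
  have h := t1OK_of_mem hD
  unfold t1OK at h
  rw [Bool.and_eq_true] at h
  simpa using h.1

theorem rcf_simple (hD : D ∈ [chevG2, chevB2, chevD4, chevF4, chevE6, chevE7, chevE8]) {k l : ℕ}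
    (hk : k < D.rank) (hl : l < D.rank) : rcf D (D.simple k) l = if k = l then dt D else 0 := by
  have h := t1OK_of_mem hD
  unfold t1OK at h
  rw [Bool.and_eq_true, List.all_eq_true] at h
  have h1 := h.2 k (List.mem_range.mpr hk)
  rw [List.all_eq_true] at h1
  simpa using h1 l (List.mem_range.mpr hl)

lemma list_sum_range (f : ℕ → ℤ) (n : ℕ) :
    ((List.range n).map f).sum = ∑ i ∈ Finset.range n, f i := by
  induction n with
  | zero => simp
  | succ n ih => rw [List.range_succ, List.map_append, List.sum_append, ih, Finset.sum_range_succ]; simp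

theorem cartan_adj (hD : D ∈ [chevG2, chevB2, chevD4, chevF4, chevE6, chevE7, chevE8]) {i j : ℕ}
    (hi : i < D.rank) (hj : j < D.rank) :
    ∑ l ∈ Finset.range D.rank, D.cartan i (D.simple l) * ((adjTab D).getD l []).getD j 0 =
      if i = j then dt D else 0 := by
  have h := t2OK_of_mem hD
  unfold t2OK at h
  rw [List.all_eq_true] at h
  have h1 := h i (List.mem_range.mpr hi)
  rw [List.all_eq_true] at h1
  rw [← list_sum_range]
  simpa using h1 j (List.mem_range.mpr hj)

lemma rcf_eq_sum (r k : ℕ) :
    rcf D r k = ∑ i ∈ Finset.range D.rank, ((adjTab D).getD k []).getD i 0 * D.cartan i r := by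
  unfold rcf
  rw [list_sum_range]

/-- the Cartan integer `A_{p_i, s}` in terms of the coefficients of `s` -/
theorem sum_cartan_rcf (hD : D ∈ [chevG2, chevB2, chevD4, chevF4, chevE6, chevE7, chevE8]) {i : ℕ}
    (hi : i < D.rank) (s : ℕ) :
    ∑ l ∈ Finset.range D.rank, D.cartan i (D.simple l) * rcf D s l = dt D * D.cartan i s := by
  simp only [rcf_eq_sum, Finset.mul_sum]
  rw [Finset.sum_comm]
  have : ∀ j ∈ Finset.range D.rank,
      ∑ l ∈ Finset.range D.rank, D.cartan i (D.simple l) * (((adjTab D).getD l []).getD j 0 * D.cartan j s) =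
        (if i = j then dt D else 0) * D.cartan j s := by
    intro j hj
    rw [← cartan_adj hD hi (Finset.mem_range.mp hj), Finset.sum_mul]
    exact Finset.sum_congr rfl fun l _ => by ring
  rw [Finset.sum_congr rfl this]
  simp only [ite_mul, zero_mul]
  rw [Finset.sum_ite_eq, if_pos (Finset.mem_range.mpr hi)]

/-- the coefficients of `w_i(s) = s - A_{p_i, s} p_i` -/
theorem rcf_reflectRoot (hD : D ∈ [chevG2, chevB2, chevD4, chevF4, chevE6, chevE7, chevE8]) {i s : ℕ}
    (hi : i < D.rank) (hs : s < D.nroots) (k : ℕ) :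
    rcf D (D.reflectRoot i s) k = rcf D s k - D.cartan i s * rcf D (D.simple i) k := by
  obtain ⟨T, W, h⟩ := exists_checks D hD
  simp only [rcf_eq_sum, Finset.mul_sum]
  rw [← Finset.sum_sub_distrib]
  apply Finset.sum_congr rfl
  intro j hj
  rw [h.cartan_reflect i hi s hs j (Finset.mem_range.mp hj)]
  ring

end Cfsg.Agent.Lib.Helper19.BT
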